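import Cfsg.Agent.MinIndexSpTwo.Basic

/-!
Orbits of the unipotent radical of a point stabiliser of `Sp_2m(2)`: either the representation is large, or
on every point the radical acts through the central transvection only.
-/

set_option autoImplicit false
set_option linter.style.haveILetI false

namespace CfsgLib.MinIndexSpTwo

open Matrix CfsgLib.SpGeom

variable {F : Type*} [Field F] [Fintype F] {m : ℕ}

local notation "V" => (Fin m ⊕ Fin m → F)
local notation "Sp" => Matrix.symplecticGroup (Fin m) F
local notation "f" => Cfsg.sympForm m F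
local notation "mat" A:max => ((A : Sp) : Matrix (Fin m ⊕ Fin m) (Fin m ⊕ Fin m) F)

/-- The orthogonal of a subspace. -/
def orth (R : Submodule F V) : Submodule F V := R.dualAnnihilator.comap formDual

omit [Fintype F] in
theorem mem_orth {R : Submodule F V} {a : V} : a ∈ orth R ↔ ∀ u ∈ R, f a u = 0 := by
  simp [orth, Submodule.mem_dualAnnihilator, formDual_apply]

theorem card_sub (R : Submodule F V) : Nat.card R = Fintype.card F ^ Module.finrank F R := by
  rw [Module.natCard_eq_pow_finrank (K := F), Nat.card_eq_fintype_card]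

omit [Fintype F] in
theorem mem_of_orth {R : Submodule F V} {u : V} (h : ∀ a ∈ orth R, f a u = 0) : u ∈ R := by
  by_contra hu
  obtain ⟨d, hd, hd'⟩ := exists_sep hu
  rw [h d (mem_orth.mpr hd')] at hd
  exact zero_ne_one hd

theorem card_orth (R : Submodule F V) : Nat.card (orth R) * Nat.card R = Fintype.card F ^ (m + m) := by
  have h1 : Nat.card (orth R) = Nat.card R.dualAnnihilator :=
    Nat.card_congr (Equiv.subtypeEquiv (Equiv.ofBijective _ formDual_bijective) fun w => Iff.rfl)
  have hV : Nat.card V = Fintype.card F ^ (m + m) := by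
    rw [Nat.card_eq_fintype_card, Fintype.card_fun, Fintype.card_sum, Fintype.card_fin]
  have hd : Nat.card R.dualAnnihilator = Fintype.card F ^ Module.finrank F R.dualAnnihilator := by
    rw [Module.natCard_eq_pow_finrank (K := F), Nat.card_eq_fintype_card]
  rw [h1, hd, card_sub R, ← pow_add, add_comm, Subspace.finrank_add_finrank_dualAnnihilator_eq,
    Module.finrank_fintype_fun_eq_card, Fintype.card_sum, Fintype.card_fin]

theorem card_perp [DecidableEq F] (h2 : Fintype.card F = 2) (hm : 1 ≤ m) {v : V} (hv : v ≠ 0) :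
    (Finset.univ.filter fun u : V => f u v = 0).card = 2 * (2 ^ (m - 1)) ^ 2 := by
  have h1 := card_orth (Submodule.span F {v})
  rw [card_sub (Submodule.span F {v}), finrank_span_singleton hv, pow_one, h2] at h1
  have h3 : Nat.card (orth (Submodule.span F {v})) = (Finset.univ.filter fun u : V => f u v = 0).card := by
    rw [← Fintype.card_subtype, ← Nat.card_eq_fintype_card]
    refine Nat.card_congr (Equiv.subtypeEquivRight fun u => ⟨fun h => mem_orth.mp h v (Submodule.mem_span_singleton_self v),
      fun h => mem_orth.mpr fun w hw => ?_⟩)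
    obtain ⟨c, rfl⟩ := Submodule.mem_span_singleton.mp hw
    rw [form_smul_right, h, mul_zero]
  rw [h3] at h1
  have h4 : 2 * (2 ^ (m - 1)) ^ 2 * 2 = 2 ^ (m + m) := by
    rw [← pow_mul, ← pow_succ', ← pow_succ]
    congr 1
    omega
  omega

section

/-- The parametrisation of the radical by the orthogonal of `v`. -/
def rad (v : V) (φ : V → F) (u : V) : Sp := xi v u * tv v (φ u)

variable {v : Fin m ⊕ Fin m → F} {φ : (Fin m ⊕ Fin m → F) → F}

omit [Fintype F] in
theorem tv_commute {u w : V} (h : f u w = 0) (c d : F) : Commute (tv u c) (tv w d) := by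
  have h1 := tv_conj (tv u c) w d
  rw [tv_fix u c (by rw [form_skew u w, h, neg_zero])] at h1
  show tv u c * tv w d = tv w d * tv u c
  exact mul_inv_eq_iff_eq_mul.mp h1

omit [Fintype F] in
theorem commute_tv_xi {u : V} (h : f u v = 0) (c : F) : Commute (tv v c) (xi v u) := by
  have h' : f v u = 0 := by rw [form_skew u v, h, neg_zero]
  exact (((tv_commute (by rw [form_add_right, h', form_self, add_zero]) _ _).mul_right (tv_commute h' _ _)).mul_right
    (tv_commute (form_self v) _ _))

theorem rad_mul (h2 : Fintype.card F = 2) (hφ : IsForm φ) {u u' : V} (h : f u v = 0) (h' : f u' v = 0) :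
    rad v φ u * rad v φ u' = rad v φ (u + u') := by
  unfold rad
  calc xi v u * tv v (φ u) * (xi v u' * tv v (φ u')) = xi v u * (tv v (φ u) * xi v u') * tv v (φ u') := by group
    _ = (xi v u * xi v u') * (tv v (φ u) * tv v (φ u')) := by rw [(commute_tv_xi h' (φ u)).eq]; group
    _ = _ := by
      rw [xi_mul h2 h h', mul_assoc, tv_mul, tv_mul, hφ]
      congr 2
      ring

theorem rad_zero (h2 : Fintype.card F = 2) (hφ : IsForm φ) : rad v φ 0 = 1 := by
  rw [rad, hφ.zero, tv_zero, xi_zero h2, mul_one]

theorem rad_self (h2 : Fintype.card F = 2) (hv1 : φ v = 1) : rad v φ v = tv v 1 := by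
  rw [rad, hv1, xi_self h2, one_mul]

theorem tv_sq (h2 : Fintype.card F = 2) (w : V) : tv w 1 * tv w 1 = (1 : Sp) := by
  rw [tv_mul, add_self h2, tv_zero]

theorem rad_smul (h2 : Fintype.card F = 2) (hφ : IsForm φ) (hv1 : φ v = 1) (δ : F) :
    rad v φ (δ • v) = tv v δ := by
  rcases zero_or_one h2 δ with h | h <;> simp [h, rad_zero h2 hφ, rad_self h2 hv1, tv_zero]

/-- Conjugation by a transvection fixing `v`. -/
theorem conj_rad (h2 : Fintype.card F = 2) (hφ : IsForm φ) (hv1 : φ v = 1) {w u : V} (hw : f w v = 0)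
    (hu : f u v = 0) :
    tv w 1 * rad v φ u * tv w 1 =
      rad v φ ((u + f u w • w) + (f u w * (1 + φ w)) • v) := by
  have hinv : (tv w 1 : Sp)⁻¹ = tv w 1 := inv_eq_of_mul_eq_one_right (tv_sq h2 w)
  have hgv : mat (tv w 1) *ᵥ v = v := tv_fix w 1 (by rw [form_comm h2, hw])
  have hgu : mat (tv w 1) *ᵥ u = u + f u w • w := by rw [tv_mulVec, one_mul]
  have hperp : f (u + f u w • w) v = 0 := by rw [form_add_left, form_smul_left, hu, hw, mul_zero, add_zero]
  rw [← rad_mul h2 hφ hperp (by rw [form_smul_left, form_self, mul_zero]), rad_smul h2 hφ hv1]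
  have e : tv w 1 * rad v φ u * (tv w 1)⁻¹ = xi v (u + f u w • w) * tv v (φ u) := by
    rw [show tv w 1 * rad v φ u * (tv w 1)⁻¹ = (tv w 1 * xi v u * (tv w 1)⁻¹) * (tv w 1 * tv v (φ u) * (tv w 1)⁻¹) by
      rw [rad]; group, conj_xi, tv_conj, hgv, hgu]
  rw [hinv] at e
  rw [e, rad, mul_assoc, tv_mul]
  congr 2
  have h := hφ u (f u w • w)
  rw [hφ.smul h2, form_smul_right, mul_self h2] at h
  rw [h]
  linear_combination -(add_self h2 (f u w * φ w)) - add_self h2 (f u w)

variable {Ω : Type*} [MulAction ↥(Matrix.symplecticGroup (Fin m) F) Ω]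

/-- The stabiliser of a point in the radical. -/
def stabSub (h2 : Fintype.card F = 2) (hφ : IsForm φ) (x : Ω) : Submodule F V where
  carrier := {u | f u v = 0 ∧ rad v φ u • x = x}
  zero_mem' := ⟨form_zero_left v, by rw [rad_zero h2 hφ, one_smul]⟩
  add_mem' := fun {a b} ha hb => ⟨by rw [form_add_left, ha.1, hb.1, add_zero], by
    rw [← rad_mul h2 hφ ha.1 hb.1, mul_smul, hb.2, ha.2]⟩
  smul_mem' := fun c a ha => by
    rcases zero_or_one h2 c with h | h
    · rw [h, zero_smul]
      exact ⟨form_zero_left v, by rw [rad_zero h2 hφ, one_smul]⟩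
    · rw [h, one_smul]
      exact ha

theorem mem_stabSub {h2 : Fintype.card F = 2} {hφ : IsForm φ} {x : Ω} {u : V} :
    u ∈ stabSub (v := v) h2 hφ x ↔ f u v = 0 ∧ rad v φ u • x = x := Iff.rfl

variable [Fintype Ω]

/-- The orbit. -/
noncomputable def orb (v : V) (φ : V → F) (x : Ω) : Finset Ω := by
  classical exact (Finset.univ.filter fun u : V => f u v = 0).image fun u => rad v φ u • x

omit [Fintype Ω] in
theorem mem_orb {x y : Ω} : y ∈ orb v φ x ↔ ∃ u, f u v = 0 ∧ rad v φ u • x = y := by
  classical
  simp [orb]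

omit [Fintype Ω] in
theorem self_mem_orb (h2 : Fintype.card F = 2) (hφ : IsForm φ) (x : Ω) : x ∈ orb v φ x :=
  mem_orb.mpr ⟨0, form_zero_left v, by rw [rad_zero h2 hφ, one_smul]⟩

omit [Fintype Ω] in
theorem orb_eq_of_mem (h2 : Fintype.card F = 2) (hφ : IsForm φ) {x y : Ω} (h : y ∈ orb v φ x) :
    orb v φ y = orb v φ x := by
  obtain ⟨u, hu, rfl⟩ := mem_orb.mp h
  ext z
  simp only [mem_orb]
  constructor
  · rintro ⟨w, hw, rfl⟩
    exact ⟨w + u, by rw [form_add_left, hw, hu, add_zero], by rw [← rad_mul h2 hφ hw hu, mul_smul]⟩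
  · rintro ⟨w, hw, rfl⟩
    refine ⟨w - u, by rw [form_sub_left, hw, hu, sub_zero], ?_⟩
    rw [← mul_smul, rad_mul h2 hφ (by rw [form_sub_left, hw, hu, sub_zero]) hu, sub_add_cancel]

/-- The dual space of an orbit. -/
def dualSub (h2 : Fintype.card F = 2) (hφ : IsForm φ) (x : Ω) : Submodule F V := orth (stabSub (v := v) h2 hφ x)

omit [Fintype Ω] in
theorem dualSub_orb (h2 : Fintype.card F = 2) (hφ : IsForm φ) {x y : Ω} (h : y ∈ orb v φ x) :
    dualSub (v := v) h2 hφ y = dualSub (v := v) h2 hφ x := by
  obtain ⟨χ, hχ, rfl⟩ := mem_orb.mp h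
  rw [dualSub, dualSub]
  congr 1
  ext u
  simp only [mem_stabSub]
  refine and_congr_right fun hu => ?_
  rw [← mul_smul, rad_mul h2 hφ hu hχ, add_comm, ← rad_mul h2 hφ hχ hu, mul_smul]
  exact ⟨fun h => MulAction.injective _ h, fun h => by rw [h]⟩

omit [Fintype Ω] in
theorem self_mem_dualSub (h2 : Fintype.card F = 2) (hφ : IsForm φ) (x : Ω) : v ∈ dualSub (v := v) h2 hφ x :=
  mem_orth.mpr fun u hu => by rw [form_comm h2]; exact (mem_stabSub.mp hu).1

omit [Fintype Ω] in
theorem card_dualSub (h2 : Fintype.card F = 2) (hm : 1 ≤ m) (hv : v ≠ 0) (hφ : IsForm φ) (x : Ω) :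
    Nat.card (dualSub (v := v) h2 hφ x) = 2 * (orb v φ x).card := by
  classical
  have h1 : (Finset.univ.filter fun u : V => f u v = 0).card =
      (orb v φ x).card * Nat.card (stabSub (v := v) h2 hφ x) := by
    have h := Finset.card_eq_sum_card_fiberwise (s := Finset.univ.filter fun u : V => f u v = 0) (t := orb v φ x)
      (show ∀ u ∈ (Finset.univ.filter fun u : V => f u v = 0), (fun u => rad v φ u • x) u ∈ orb v φ x from
        fun u hu => mem_orb.mpr ⟨u, (Finset.mem_filter.mp hu).2, rfl⟩)
    refine h.trans ?_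
    rw [Nat.card_eq_fintype_card, Fintype.card_subtype, ← smul_eq_mul, ← Finset.sum_const]
    refine Finset.sum_congr rfl fun y hy => ?_
    obtain ⟨χ, hχ, rfl⟩ := mem_orb.mp hy
    refine Finset.card_bij' (fun u _ => u - χ) (fun u _ => u + χ) ?_ ?_ (by simp) (by simp)
    · intro u hu
      simp only [Finset.mem_filter, Finset.mem_univ, true_and] at hu ⊢
      obtain ⟨h1, h2'⟩ := hu
      have h3 : f (u - χ) v = 0 := by rw [form_sub_left, h1, hχ, sub_zero]
      refine mem_stabSub.mpr ⟨h3, MulAction.injective (rad v φ χ) ?_⟩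
      show rad v φ χ • rad v φ (u - χ) • x = rad v φ χ • x
      rw [← mul_smul, rad_mul h2 hφ hχ h3, add_sub_cancel, h2']
    · intro u hu
      simp only [Finset.mem_filter, Finset.mem_univ, true_and] at hu ⊢
      obtain ⟨h1, h2'⟩ := mem_stabSub.mp hu
      refine ⟨by rw [form_add_left, h1, hχ, add_zero], ?_⟩
      rw [add_comm, ← rad_mul h2 hφ hχ h1, mul_smul, h2']
  have h3 := card_orth (stabSub (v := v) h2 hφ x)
  have h4 : Fintype.card F ^ (m + m) = 2 * (Finset.univ.filter fun u : V => f u v = 0).card := by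
    rw [card_perp h2 hm hv, h2, ← pow_mul, ← pow_succ', ← pow_succ']
    congr 1
    omega
  rw [h4, h1] at h3
  exact Nat.eq_of_mul_eq_mul_right Nat.card_pos (h3.trans (mul_assoc _ _ _).symm)

omit [Fintype Ω] in
theorem smul_mem_dualSub (h2 : Fintype.card F = 2) (hφ : IsForm φ) (hv1 : φ v = 1) {a w : V} (hw : f w v = 0)
    {x : Ω} (ha : a ∈ dualSub (v := v) h2 hφ x) :
    a + (f a w + f a v * (1 + φ w)) • w ∈ dualSub (v := v) h2 hφ (tv w 1 • x) := by
  refine mem_orth.mpr fun u hu => ?_
  obtain ⟨h1, h3⟩ := mem_stabSub.mp hu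
  have h4 : rad v φ ((u + f u w • w) + (f u w * (1 + φ w)) • v) • x = x := by
    rw [← conj_rad h2 hφ hv1 hw h1, mul_smul, mul_smul, h3, ← mul_smul, tv_sq h2, one_smul]
  have h5 := mem_orth.mp ha _ (mem_stabSub.mpr
    ⟨by rw [form_add_left, form_add_left, form_smul_left, form_smul_left, h1, hw, form_self]; ring, h4⟩)
  rw [form_add_right, form_add_right, form_smul_right, form_smul_right] at h5
  rw [form_add_left, form_smul_left, form_comm h2 w u]
  linear_combination h5

set_option maxHeartbeats 1000000 in
/-- Either the representation is large or the radical acts through its centre on every point. -/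
theorem bound_or_central [DecidableEq F] (h2 : Fintype.card F = 2) (hm : 3 ≤ m) (hv : v ≠ 0) (hφ : IsForm φ) (hv1 : φ v = 1)
    (hmove : ∃ x : Ω, tv v 1 • x ≠ x) :
    2 ^ (m - 1) * (2 ^ m - 1) ≤ Fintype.card Ω ∨
      ∀ (x : Ω) (u : V), f u v = 0 → xi v u • x = x ∨ xi v u • x = tv v 1 • x := by
  classical
  set s := 2 ^ (m - 1) with hs
  have hs4 : 4 ≤ s := by
    rw [hs]; calc (4 : ℕ) = 2 ^ 2 := rfl
      _ ≤ 2 ^ (m - 1) := Nat.pow_le_pow_right (by norm_num) (by omega)
  have h2m : 2 ^ m = 2 * s := by rw [hs, ← pow_succ']; congr 1; omega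
  have hgoal : s * (2 ^ m - 1) + s = 2 * s ^ 2 := by
    rw [h2m, Nat.mul_sub, mul_one, Nat.sub_add_cancel (Nat.le_mul_of_pos_right s (by omega))]
    ring
  set perp := Finset.univ.filter fun u : V => f u v = 0 with hperp
  have hP : perp.card = 2 * s ^ 2 := card_perp h2 (by omega) hv
  let S : Ω → Finset V := fun x => Finset.univ.filter fun a => a ∈ dualSub (v := v) h2 hφ x
  have hSmem : ∀ {x : Ω} {a : V}, a ∈ S x ↔ a ∈ dualSub (v := v) h2 hφ x := fun {x a} => by simp [S]
  have hScard : ∀ x, (S x).card = 2 * (orb v φ x).card := fun x => by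
    rw [← card_dualSub h2 (by omega) hv hφ x, Nat.card_eq_fintype_card, Fintype.card_subtype]
  let cls : Finset (Finset Ω) := Finset.univ.image (orb v φ)
  let k : V → ℕ := fun a => (cls.filter fun O => ∃ x ∈ O, a ∈ S x).card
  have hcls : ∀ x, orb v φ x ∈ cls := fun x => Finset.mem_image_of_mem _ (Finset.mem_univ x)
  have hsumO : ∑ O ∈ cls, O.card = Fintype.card Ω := by
    rw [← Finset.card_univ, Finset.card_eq_sum_card_fiberwise (t := cls) (fun x _ => hcls x)]
    refine Finset.sum_congr rfl fun O hO => ?_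
    obtain ⟨x, -, rfl⟩ := Finset.mem_image.mp hO
    congr 1
    ext y
    simp only [Finset.mem_filter, Finset.mem_univ, true_and]
    exact ⟨orb_eq_of_mem h2 hφ, fun h => h ▸ self_mem_orb h2 hφ y⟩
  have hSorb : ∀ O ∈ cls, ∀ x ∈ O, ∀ a, (∃ y ∈ O, a ∈ S y) ↔ a ∈ S x := by
    intro O hO x hx a
    obtain ⟨z, -, rfl⟩ := Finset.mem_image.mp hO
    refine ⟨fun ⟨y, hy, hay⟩ => ?_, fun h => ⟨x, hx, h⟩⟩
    rw [hSmem, dualSub_orb h2 hφ hx, ← dualSub_orb h2 hφ hy]
    exact hSmem.mp hay
  have hsumk : ∑ a, k a = 2 * Fintype.card Ω := by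
    simp only [k, Finset.card_filter]
    rw [Finset.sum_comm, ← hsumO, Finset.mul_sum]
    refine Finset.sum_congr rfl fun O hO => ?_
    obtain ⟨z, -, rfl⟩ := Finset.mem_image.mp hO
    rw [← hScard z, ← Finset.card_filter]
    congr 1
    ext a
    simp only [Finset.mem_filter, Finset.mem_univ, true_and]
    exact hSorb _ hO z (self_mem_orb h2 hφ z) a
  have hmono : ∀ a w, f w v = 0 → k a ≤ k (a + (f a w + f a v * (1 + φ w)) • w) := by
    intro a w hw
    refine Finset.card_le_card_of_injOn (fun O => O.image fun x => tv w 1 • x) ?_ ?_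
    · intro O hO
      obtain ⟨hO1, x, hx, hax⟩ := Finset.mem_filter.mp hO
      obtain ⟨z, -, rfl⟩ := Finset.mem_image.mp hO1
      refine Finset.mem_filter.mpr ⟨Finset.mem_image.mpr ⟨tv w 1 • z, Finset.mem_univ _, ?_⟩,
        tv w 1 • x, Finset.mem_image_of_mem _ hx, hSmem.mpr (smul_mem_dualSub h2 hφ hv1 hw (hSmem.mp hax))⟩
      have hout : ∀ u, f u v = 0 → f ((u + f u w • w) + (f u w * (1 + φ w)) • v) v = 0 := fun u hu => by
        rw [form_add_left, form_add_left, form_smul_left, form_smul_left, hu, hw, form_self]; ring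
      ext y
      simp only [Finset.mem_image, mem_orb]
      constructor
      · rintro ⟨u, hu, rfl⟩
        refine ⟨tv w 1 • rad v φ u • tv w 1 • z, ⟨_, hout u hu, ?_⟩, ?_⟩
        · rw [← conj_rad h2 hφ hv1 hw hu, mul_smul, mul_smul]
        · rw [← mul_smul (tv w 1) (tv w 1), tv_sq h2, one_smul]
      · rintro ⟨_, ⟨u, hu, rfl⟩, rfl⟩
        exact ⟨_, hout u hu, by rw [← conj_rad h2 hφ hv1 hw hu, mul_smul, mul_smul, ← mul_smul (tv w 1) (tv w 1), tv_sq h2, one_smul]⟩
    · intro O _ O' _ h
      exact Finset.image_injective (MulAction.injective (tv w 1 : Sp)) h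
  -- constancy on the linear characters
  set lin := perp.filter fun a => a ≠ 0 ∧ a ≠ v with hlin
  have hlin_mem : ∀ {a : V}, a ∈ lin ↔ f a v = 0 ∧ a ≠ 0 ∧ a ≠ v := fun {a} => by simp [lin, perp]
  have hlinspan : ∀ {a : V}, a ∈ lin → a ∉ Submodule.span F {v} := fun ha =>
    not_mem_span_singleton h2 (hlin_mem.mp ha).2.1 (hlin_mem.mp ha).2.2
  have hstep : ∀ a b : V, f a v = 0 → f b v = 0 → f a b = 1 → k a ≤ k b := by
    intro a b ha hb hab
    have h := hmono a (a + b) (by rw [form_add_left, ha, hb, add_zero])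
    rwa [ha, form_add_right, form_self, hab, zero_add, zero_mul, add_zero, one_smul, ← add_assoc, vec_add_self h2,
      zero_add] at h
  have hconst : ∀ a ∈ lin, ∀ b ∈ lin, k a ≤ k b := by
    intro a ha b hb
    obtain ⟨c, hca, hc⟩ := exists_sep (hlinspan ha)
    obtain ⟨c', hcb, hc'⟩ := exists_sep (hlinspan hb)
    have hav := (hlin_mem.mp ha).1
    have hbv := (hlin_mem.mp hb).1
    have hcv := hc v (Submodule.mem_span_singleton_self v)
    have hc'v := hc' v (Submodule.mem_span_singleton_self v)
    obtain ⟨d, hdv, hda, hdb⟩ : ∃ d, f d v = 0 ∧ f d a = 1 ∧ f d b = 1 := by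
      rcases zero_or_one h2 (f c b) with h | h
      · rcases zero_or_one h2 (f c' a) with h' | h'
        · exact ⟨c + c', by rw [form_add_left, hcv, hc'v, add_zero], by rw [form_add_left, hca, h', add_zero],
            by rw [form_add_left, h, hcb, zero_add]⟩
        · exact ⟨c', hc'v, h', hcb⟩
      · exact ⟨c, hcv, hca, h⟩
    exact (hstep a d hav hdv (by rw [form_comm h2, hda])).trans (hstep d b hdv hbv hdb)
  set N := cls.card with hN
  have hk0 : k 0 = N ∧ k v = N := by
    constructor <;>
    · show (cls.filter _).card = N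
      rw [Finset.filter_true_of_mem]
      intro O hO
      obtain ⟨z, -, rfl⟩ := Finset.mem_image.mp hO
      exact ⟨z, self_mem_orb h2 hφ z, hSmem.mpr (by first | exact Submodule.zero_mem _ | exact self_mem_dualSub h2 hφ z)⟩
  obtain ⟨x₁, hx₁⟩ := hmove
  obtain ⟨a₁, ha₁S, ha₁v⟩ : ∃ a ∈ S x₁, f a v = 1 := by
    by_contra hc
    push Not at hc
    have hmem : v ∈ stabSub (v := v) h2 hφ x₁ := mem_of_orth fun a ha =>
      (zero_or_one h2 (f a v)).resolve_right (hc a (hSmem.mpr ha))
    have := (mem_stabSub.mp hmem).2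
    rw [rad_self h2 hv1] at this
    exact hx₁ this
  -- the class of a quadratic character
  set Z := perp.filter fun w => φ w + f a₁ w = 0 with hZ
  have hZcard : s ^ 2 ≤ Z.card + s := by
    have hψ := hφ.add_linear a₁
    have hadd : ∀ a ∈ perp, ∀ b ∈ perp, a + b ∈ perp := fun a ha b hb => by
      simp only [perp, Finset.mem_filter, Finset.mem_univ, true_and] at ha hb ⊢
      rw [form_add_left, ha, hb, add_zero]
    have hrad : ∀ w, w ∈ ({0, v} : Finset V) ↔ w ∈ perp ∧ ∀ x ∈ perp, f x w = 0 := by
      intro w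
      constructor
      · intro hw
        simp only [Finset.mem_insert, Finset.mem_singleton] at hw
        rcases hw with hw | hw <;> subst hw <;>
          simp +contextual [perp, form_zero_left, form_zero_right, form_self]
      · rintro ⟨hw, hall⟩
        by_contra hne
        simp only [Finset.mem_insert, Finset.mem_singleton, not_or] at hne
        obtain ⟨d, hd, hd'⟩ := exists_sep (not_mem_span_singleton h2 hne.1 hne.2)
        rw [hall d (Finset.mem_filter.mpr ⟨Finset.mem_univ _, hd' v (Submodule.mem_span_singleton_self v)⟩)] at hd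
        exact zero_ne_one hd
    have hsq := gsum_sq h2 perp hadd {0, v} hrad hψ
    rw [Finset.sum_pair (Ne.symm hv)] at hsq
    have e0 : φ 0 + f a₁ 0 = 0 := by rw [hφ.zero, form_zero_right, add_zero]
    have e1 : φ v + f a₁ v = 0 := by rw [hv1, ha₁v, add_self h2]
    rw [e0, e1, sg_zero, hP] at hsq
    push_cast at hsq
    have hg : (gsum perp fun w => φ w + f a₁ w) ^ 2 = (2 * (s : ℤ)) ^ 2 := by linear_combination hsq
    have hcnt := gsum_eq_count h2 perp fun w => φ w + f a₁ w
    rw [hP] at hcnt
    push_cast at hcnt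
    change _ = 2 * (Z.card : ℤ) at hcnt
    rcases sq_eq_sq_iff_eq_or_eq_neg.mp hg with h | h <;>
      · rw [h] at hcnt
        have : (s : ℤ) ^ 2 ≤ Z.card + s := by linarith
        exact_mod_cast this
  set T := Z.image fun w => a₁ + w with hT
  have hTcard : T.card = Z.card := Finset.card_image_of_injective _ (add_right_injective a₁)
  have hTv : ∀ b ∈ T, f b v = 1 := by
    intro b hb
    obtain ⟨w, hw, rfl⟩ := Finset.mem_image.mp hb
    rw [form_add_left, ha₁v, (Finset.mem_filter.mp (Finset.mem_filter.mp hw).1).2, add_zero]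
  have hTk : ∀ b ∈ T, 0 < k b := by
    intro b hb
    obtain ⟨w, hw, rfl⟩ := Finset.mem_image.mp hb
    obtain ⟨hwp, hwz⟩ := Finset.mem_filter.mp hw
    have h := hmono a₁ w (Finset.mem_filter.mp hwp).2
    rw [ha₁v, show f a₁ w + 1 * (1 + φ w) = 1 + (φ w + f a₁ w) by ring, hwz, add_zero, one_smul] at h
    exact lt_of_lt_of_le (Finset.card_pos.mpr ⟨orb v φ x₁, Finset.mem_filter.mpr
      ⟨hcls x₁, x₁, self_mem_orb h2 hφ x₁, ha₁S⟩⟩) h
  obtain ⟨a₀, ha₀⟩ : lin.Nonempty := by
    refine Finset.card_pos.mp ?_
    have hle := Finset.card_le_card (show perp ⊆ lin ∪ {0, v} from fun a ha => by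
      by_cases h : a = 0 ∨ a = v
      · rcases h with h | h <;> simp [h]
      · push Not at h
        exact Finset.mem_union_left _ (hlin_mem.mpr ⟨(Finset.mem_filter.mp ha).2, h.1, h.2⟩))
    have := hle.trans (Finset.card_union_le _ _)
    rw [hP, Finset.card_pair (Ne.symm hv)] at this
    nlinarith
  have hlincard : lin.card + 2 = 2 * s ^ 2 := by
    have hsub : lin = perp \ {0, v} := by
      ext a
      simp [lin]
    rw [hsub, ← hP, ← Finset.card_pair (Ne.symm hv)]
    exact Finset.card_sdiff_add_card_eq_card (by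
      intro a ha
      simp only [Finset.mem_insert, Finset.mem_singleton] at ha
      rcases ha with ha | ha <;> subst ha <;> simp [perp, form_zero_left, form_self])
  have hcount : 2 * N + k a₀ * lin.card + T.card ≤ 2 * Fintype.card Ω := by
    rw [← hsumk]
    have hd1 : Disjoint ({0, v} : Finset V) lin := by
      rw [Finset.disjoint_left]
      intro a ha ha'
      simp only [Finset.mem_insert, Finset.mem_singleton] at ha
      rcases ha with ha | ha
      · exact (hlin_mem.mp ha').2.1 ha
      · exact (hlin_mem.mp ha').2.2 ha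
    have hd2 : Disjoint (({0, v} : Finset V) ∪ lin) T := by
      rw [Finset.disjoint_left]
      intro a ha ha'
      have h1 := hTv a ha'
      simp only [Finset.mem_union, Finset.mem_insert, Finset.mem_singleton] at ha
      rcases ha with (ha | ha) | ha
      · rw [ha, form_zero_left] at h1; exact zero_ne_one h1
      · rw [ha, form_self] at h1; exact zero_ne_one h1
      · rw [(hlin_mem.mp ha).1] at h1; exact zero_ne_one h1
    refine le_trans ?_ (Finset.sum_le_sum_of_subset (Finset.subset_univ ((({0, v} : Finset V) ∪ lin) ∪ T)))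
    rw [Finset.sum_union hd2, Finset.sum_union hd1, Finset.sum_pair (Ne.symm hv), hk0.1, hk0.2]
    refine Nat.add_le_add (Nat.add_le_add (by omega) ?_) ?_
    · rw [mul_comm, ← smul_eq_mul, ← Finset.sum_const]
      exact Finset.sum_le_sum fun b hb => hconst a₀ ha₀ b hb
    · rw [Finset.card_eq_sum_ones]
      exact Finset.sum_le_sum fun b hb => hTk b hb
  have hN1 : 1 ≤ N := Finset.card_pos.mpr ⟨_, hcls x₁⟩
  rcases Nat.lt_or_ge (k a₀) 2 with hk1 | hk2
  swap
  · left
    have : 2 * lin.card ≤ k a₀ * lin.card := Nat.mul_le_mul_right _ hk2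
    omega
  rcases Nat.lt_or_ge (k a₀) 1 with hkz | hk1'
  · -- no linear character
    right
    have hnone : ∀ x : Ω, ∀ a ∈ S x, f a v = 0 → a = 0 ∨ a = v := by
      intro x a ha hav
      by_contra hne
      push Not at hne
      have h1 := hconst a (hlin_mem.mpr ⟨hav, hne.1, hne.2⟩) a₀ ha₀
      have : 0 < k a := Finset.card_pos.mpr ⟨orb v φ x, Finset.mem_filter.mpr ⟨hcls x, x, self_mem_orb h2 hφ x, ha⟩⟩
      omega
    intro x u hu
    have hu' : xi v u • x ∈ orb v φ x := mem_orb.mpr ⟨u + φ u • v, by
      rw [form_add_left, form_smul_left, hu, form_self, mul_zero, add_zero], by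
      rw [← rad_mul h2 hφ hu (by rw [form_smul_left, form_self, mul_zero]), rad_smul h2 hφ hv1, rad, mul_assoc, tv_mul,
        add_self h2, tv_zero, mul_one]⟩
    by_cases hfix : tv v 1 • x = x
    · left
      have hle : (S x).card ≤ 2 := (Finset.card_le_card (fun a ha => by
        have hvR : v ∈ stabSub (v := v) h2 hφ x := mem_stabSub.mpr ⟨form_self v, by rw [rad_self h2 hv1, hfix]⟩
        have := mem_orth.mp (hSmem.mp ha) v hvR
        rcases hnone x a ha this with h | h <;> simp [h] :
        S x ⊆ ({0, v} : Finset V))).trans Finset.card_le_two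
      rw [hScard] at hle
      exact Finset.card_le_one.mp (by omega) _ hu' _ (self_mem_orb h2 hφ x)
    · by_contra hcon
      push Not at hcon
      have hle : (S x).card ≤ 4 := by
        by_cases hform : ∃ b ∈ S x, f b v = 1
        · obtain ⟨b, hb, hbv⟩ := hform
          have : S x ⊆ {0, v, b, b + v} := by
            intro a ha
            rcases zero_or_one h2 (f a v) with h | h
            · rcases hnone x a ha h with h' | h' <;> simp [h']
            · have hab : a + b ∈ S x := hSmem.mpr (Submodule.add_mem _ (hSmem.mp ha) (hSmem.mp hb))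
              have habv : f (a + b) v = 0 := by rw [form_add_left, h, hbv, add_self h2]
              have ha2 : a = (a + b) + b := by rw [add_assoc, vec_add_self h2, add_zero]
              rcases hnone x _ hab habv with h' | h' <;> rw [ha2, h'] <;> simp [add_comm]
          exact (Finset.card_le_card this).trans Finset.card_le_four
        · push Not at hform
          have : S x ⊆ {0, v} := fun a ha => by
            rcases hnone x a ha ((zero_or_one h2 _).resolve_right (hform a ha)) with h | h <;> simp [h]
          exact (Finset.card_le_card this).trans (Finset.card_le_two.trans (by norm_num))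
      rw [hScard] at hle
      have h3 : ({x, tv v 1 • x, xi v u • x} : Finset Ω) ⊆ orb v φ x := by
        intro y hy
        simp only [Finset.mem_insert, Finset.mem_singleton] at hy
        rcases hy with hy | hy | hy <;> subst hy
        · exact self_mem_orb h2 hφ _
        · exact mem_orb.mpr ⟨v, form_self v, by rw [rad_self h2 hv1]⟩
        · exact hu'
      have := Finset.card_le_card h3
      rw [Finset.card_insert_of_notMem (by simp [Ne.symm hfix, Ne.symm hcon.1]), Finset.card_pair (Ne.symm hcon.2)] at this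
      omega
  -- exactly one orbit for each linear character
  left
  have hk : ∀ a ∈ lin, k a = 1 := fun a ha => by
    have := hconst a ha a₀ ha₀
    have := hconst a₀ ha₀ a ha
    omega
  have huniq : ∀ a ∈ lin, ∀ x y : Ω, a ∈ S x → a ∈ S y → orb v φ x = orb v φ y := fun a ha x y hx hy =>
    Finset.card_le_one.mp (hk a ha).le _ (Finset.mem_filter.mpr ⟨hcls x, x, self_mem_orb h2 hφ x, hx⟩) _
      (Finset.mem_filter.mpr ⟨hcls y, y, self_mem_orb h2 hφ y, hy⟩)
  -- the linear part of a dual space is small or everything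
  have hdich : ∀ x : Ω, (∀ u ∈ perp, u ∈ S x) ∨ ((S x).filter fun a => f a v = 0).card ≤ 4 := by
    intro x
    by_cases hex : ∃ a b, a ∈ S x ∧ b ∈ S x ∧ a ∈ lin ∧ b ∈ lin ∧ b ∉ ({a, a + v} : Finset V)
    · left
      obtain ⟨a, b, ha, hb, hal, hbl, hne⟩ := hex
      simp only [Finset.mem_insert, Finset.mem_singleton, not_or] at hne
      have hav := (hlin_mem.mp hal).1
      have hbv := (hlin_mem.mp hbl).1
      have half : ∀ a b, a ∈ S x → b ∈ S x → a ∈ lin → b ∈ lin → b ∉ Submodule.span F {a, v} →
          ∀ w, f w v = 0 → f a w = 0 → w ∈ S x := by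
        intro a b ha hb hal hbl hspan
        have hav := (hlin_mem.mp hal).1
        have hbv := (hlin_mem.mp hbl).1
        have key : ∀ w, f w v = 0 → f a w = 0 → f b w = 1 → w ∈ S x := by
          intro w hw haw hbw
          have h1 := smul_mem_dualSub h2 hφ hv1 hw (hSmem.mp ha)
          rw [haw, hav, zero_mul, add_zero, zero_smul, add_zero] at h1
          have h2' := huniq a hal _ _ (hSmem.mpr h1) ha
          have h3 := smul_mem_dualSub h2 hφ hv1 hw (hSmem.mp hb)
          rw [hbw, hbv, zero_mul, add_zero, one_smul,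
            dualSub_orb h2 hφ (show tv w 1 • x ∈ orb v φ x from h2' ▸ self_mem_orb h2 hφ _)] at h3
          have h4 := Submodule.add_mem _ (hSmem.mp hb) h3
          rw [← add_assoc, vec_add_self h2, zero_add] at h4
          exact hSmem.mpr h4
        obtain ⟨w₀, hw₀, hw₀'⟩ := exists_sep hspan
        have hw₀a := hw₀' a (Submodule.subset_span (by simp))
        have hw₀v := hw₀' v (Submodule.subset_span (by simp))
        rw [form_comm h2] at hw₀ hw₀a
        intro w hw haw
        rcases zero_or_one h2 (f b w) with h | h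
        · have h1 := key (w + w₀) (by rw [form_add_left, hw, hw₀v, add_zero]) (by rw [form_add_right, haw, hw₀a, add_zero])
            (by rw [form_add_right, h, hw₀, zero_add])
          have h4 := Submodule.add_mem _ (hSmem.mp h1) (hSmem.mp (key w₀ hw₀v hw₀a hw₀))
          rw [add_assoc, vec_add_self h2, add_zero] at h4
          exact hSmem.mpr h4
        · exact key w hw haw h
      have hspan1 : b ∉ Submodule.span F {a, v} :=
        not_mem_span_pair h2 (hlin_mem.mp hbl).2.1 hne.1 (hlin_mem.mp hbl).2.2 hne.2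
      have hspan2 : a ∉ Submodule.span F {b, v} := by
        refine not_mem_span_pair h2 (hlin_mem.mp hal).2.1 (Ne.symm hne.1) (hlin_mem.mp hal).2.2 fun h => hne.2 ?_
        rw [h, add_assoc, vec_add_self h2, add_zero]
      obtain ⟨w₁, hw₁, hw₁'⟩ := exists_sep hspan2
      have hw₁b := hw₁' b (Submodule.subset_span (by simp))
      have hw₁v := hw₁' v (Submodule.subset_span (by simp))
      rw [form_comm h2] at hw₁ hw₁b
      have hw₁S := half b a hb ha hbl hal hspan2 w₁ hw₁v hw₁b
      intro u hu
      have huv := (Finset.mem_filter.mp hu).2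
      rcases zero_or_one h2 (f a u) with h | h
      · exact half a b ha hb hal hbl hspan1 u huv h
      · have h1 := half a b ha hb hal hbl hspan1 (u + w₁) (by rw [form_add_left, huv, hw₁v, add_zero])
          (by rw [form_add_right, h, hw₁, add_self h2])
        have h4 := Submodule.add_mem _ (hSmem.mp h1) (hSmem.mp hw₁S)
        rw [add_assoc, vec_add_self h2, add_zero] at h4
        exact hSmem.mpr h4
    · right
      push Not at hex
      by_cases hne : ∃ a ∈ S x, a ∈ lin
      · obtain ⟨a, ha, hal⟩ := hne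
        have : (S x).filter (fun a => f a v = 0) ⊆ {0, v, a, a + v} := by
          intro b hb
          obtain ⟨hb1, hb2⟩ := Finset.mem_filter.mp hb
          by_cases hbl : b ∈ lin
          · have := hex a b ha hb1 hal hbl
            simp only [Finset.mem_insert, Finset.mem_singleton] at this ⊢
            tauto
          · rw [hlin_mem] at hbl
            simp only [Finset.mem_insert, Finset.mem_singleton]
            tauto
        exact (Finset.card_le_card this).trans Finset.card_le_four
      · push Not at hne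
        have : (S x).filter (fun a => f a v = 0) ⊆ {0, v} := by
          intro b hb
          obtain ⟨hb1, hb2⟩ := Finset.mem_filter.mp hb
          have hbl := hne b hb1
          rw [hlin_mem] at hbl
          simp only [Finset.mem_insert, Finset.mem_singleton]
          tauto
        exact (Finset.card_le_card this).trans (Finset.card_le_two.trans (by norm_num))
  -- a dual space has at most half of its elements outside the orthogonal
  have hhalf : ∀ x : Ω, ((S x).filter fun a => ¬ f a v = 0).card ≤ ((S x).filter fun a => f a v = 0).card := by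
    intro x
    rcases Finset.eq_empty_or_nonempty ((S x).filter fun a => ¬ f a v = 0) with h | ⟨b, hb⟩
    · rw [h, Finset.card_empty]; exact Nat.zero_le _
    · obtain ⟨hb1, hb2⟩ := Finset.mem_filter.mp hb
      refine Finset.card_le_card_of_injOn (fun a => a + b) (fun a ha => ?_) (fun a _ a' _ h => add_left_injective b h)
      obtain ⟨ha1, ha2⟩ := Finset.mem_filter.mp ha
      refine Finset.mem_filter.mpr ⟨hSmem.mpr (Submodule.add_mem _ (hSmem.mp ha1) (hSmem.mp hb1)), ?_⟩
      rw [form_add_left, (zero_or_one h2 _).resolve_left ha2, (zero_or_one h2 _).resolve_left hb2, add_self h2]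
  have hsplit : ∀ x : Ω, ((S x).filter fun a => f a v = 0).card + ((S x).filter fun a => ¬ f a v = 0).card =
      2 * (orb v φ x).card := fun x => (Finset.card_filter_add_card_filter_not _).trans (hScard x)
  by_cases hbig : ∃ x₀ : Ω, ∀ u ∈ perp, u ∈ S x₀
  · obtain ⟨x₀, hx₀⟩ := hbig
    have hd0 : 2 * s ^ 2 ≤ 2 * (orb v φ x₀).card := by
      rw [← hP, ← hScard]
      exact Finset.card_le_card hx₀
    by_cases hform : ∃ b ∈ S x₀, f b v = 1
    · obtain ⟨b, hb, hbv⟩ := hform
      have hall : (Finset.univ : Finset V) ⊆ S x₀ := by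
        intro a _
        rcases zero_or_one h2 (f a v) with h | h
        · exact hx₀ a (Finset.mem_filter.mpr ⟨Finset.mem_univ _, h⟩)
        · have h1 := hx₀ (a + b) (Finset.mem_filter.mpr ⟨Finset.mem_univ _, by rw [form_add_left, h, hbv, add_self h2]⟩)
          have h4 := Submodule.add_mem _ (hSmem.mp h1) (hSmem.mp hb)
          rw [add_assoc, vec_add_self h2, add_zero] at h4
          exact hSmem.mpr h4
      have h1 := Finset.card_le_card hall
      rw [hScard, Finset.card_univ, Fintype.card_fun, Fintype.card_sum, Fintype.card_fin, h2,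
        show m + m = 2 * (m - 1) + 2 by omega, pow_add, pow_mul', ← hs] at h1
      have h3 := Finset.card_le_univ (orb v φ x₀)
      omega
    · push Not at hform
      have hTsub : T.card ≤ ∑ O ∈ cls.erase (orb v φ x₀), O.card := by
        calc T.card ≤ ∑ b ∈ T, ((cls.erase (orb v φ x₀)).filter fun O => ∃ x ∈ O, b ∈ S x).card := by
              rw [Finset.card_eq_sum_ones]
              refine Finset.sum_le_sum fun b hb => ?_
              obtain ⟨O, hO⟩ := Finset.card_pos.mp (hTk b hb)
              obtain ⟨hO1, hO2⟩ := Finset.mem_filter.mp hO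
              refine Finset.card_pos.mpr ⟨O, Finset.mem_filter.mpr ⟨Finset.mem_erase.mpr ⟨?_, hO1⟩, hO2⟩⟩
              rintro rfl
              exact hform b ((hSorb _ (hcls x₀) x₀ (self_mem_orb h2 hφ x₀) b).mp hO2) (hTv b hb)
          _ = ∑ O ∈ cls.erase (orb v φ x₀), (T.filter fun b => ∃ x ∈ O, b ∈ S x).card := by
              simp only [Finset.card_filter]; exact Finset.sum_comm
          _ ≤ ∑ O ∈ cls.erase (orb v φ x₀), O.card := by
              refine Finset.sum_le_sum fun O hO => ?_
              have hO1 := Finset.mem_of_mem_erase hO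
              obtain ⟨z, -, rfl⟩ := Finset.mem_image.mp hO1
              have hsub : (T.filter fun b => ∃ x ∈ orb v φ z, b ∈ S x) ⊆ (S z).filter fun a => ¬ f a v = 0 := by
                intro b hb
                obtain ⟨hb1, hb2⟩ := Finset.mem_filter.mp hb
                refine Finset.mem_filter.mpr ⟨(hSorb _ hO1 z (self_mem_orb h2 hφ z) b).mp hb2, ?_⟩
                rw [hTv b hb1]; exact one_ne_zero
              have := Finset.card_le_card hsub
              have := hhalf z
              have := hsplit z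
              omega
      rw [← hsumO, ← Finset.add_sum_erase _ _ (hcls x₀)]
      omega
  · push Not at hbig
    have hsmallO : ∀ O ∈ cls, O.card ≤ 4 := by
      intro O hO
      obtain ⟨z, -, rfl⟩ := Finset.mem_image.mp hO
      rcases hdich z with h | h
      · obtain ⟨u, hu, hu'⟩ := hbig z
        exact absurd (h u hu) hu'
      · have := hhalf z
        have := hsplit z
        omega
    have h4 : Fintype.card Ω ≤ 4 * N := by
      rw [← hsumO, hN, mul_comm, ← smul_eq_mul, ← Finset.sum_const]
      exact Finset.sum_le_sum hsmallO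
    have : 1 * lin.card ≤ k a₀ * lin.card := Nat.mul_le_mul_right _ hk1'
    have hsq4 : 4 * s ≤ s ^ 2 := by rw [sq]; exact Nat.mul_le_mul_right s hs4
    omega

end

end CfsgLib.MinIndexSpTwo
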