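import Cfsg.Agent.SpGeom.Basic

/-!
The field of two elements, quadratic forms with given polar form and Gauss sums, Siegel elements of
`Sp_2m(2)`.
-/

set_option autoImplicit false
set_option linter.style.haveILetI false

namespace CfsgLib.MinIndexSpTwo

open Matrix CfsgLib.SpGeom

variable {F : Type*} [Field F] [Fintype F] {m : ℕ}

local notation "V" => (Fin m ⊕ Fin m → F)
local notation "Sp" => Matrix.symplecticGroup (Fin m) F
local notation "f" => Cfsg.sympForm m F
local notation "mat" A:max => ((A : Sp) : Matrix (Fin m ⊕ Fin m) (Fin m ⊕ Fin m) F)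

theorem zero_or_one (h2 : Fintype.card F = 2) (a : F) : a = 0 ∨ a = 1 := by
  classical
  by_contra h
  push Not at h
  have := Finset.card_le_univ ({a, 0, 1} : Finset F)
  rw [h2, Finset.card_insert_of_notMem (by simp [h.1, h.2]), Finset.card_pair zero_ne_one] at this
  omega

theorem add_self (h2 : Fintype.card F = 2) (a : F) : a + a = 0 := by
  haveI : CharP F 2 := charP_of_card_eq_prime h2
  exact CharTwo.add_self_eq_zero a

theorem mul_self (h2 : Fintype.card F = 2) (a : F) : a * a = a := by
  rcases zero_or_one h2 a with h | h <;> simp [h]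

theorem form_comm (h2 : Fintype.card F = 2) (x y : V) : f x y = f y x := by
  rw [form_skew y x, neg_eq_of_add_eq_zero_right (add_self h2 (f y x))]

theorem vec_add_self (h2 : Fintype.card F = 2) (x : V) : x + x = 0 :=
  funext fun i => add_self h2 (x i)

omit [Fintype F] in
/-- The form as a map to the dual space. -/
def formDual : V →ₗ[F] Module.Dual F V :=
  LinearMap.mk₂ F (fun a x => f a x) form_add_left form_smul_left form_add_right
    fun c a x => form_smul_right c a x

omit [Fintype F] in
theorem formDual_apply (a x : V) : formDual a x = f a x := rfl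

omit [Fintype F] in
theorem formDual_bijective : Function.Bijective (formDual (F := F) (m := m)) := by
  have hinj : Function.Injective (formDual (F := F) (m := m)) :=
    fun a b h => ext_form fun x => LinearMap.congr_fun h x
  exact ⟨hinj, (LinearMap.injective_iff_surjective_of_finrank_eq_finrank
    Subspace.dual_finrank_eq.symm).mp hinj⟩

omit [Fintype F] in
/-- A vector orthogonal to a subspace and not to a given vector outside it. -/
theorem exists_sep {p : Submodule F V} {u : V} (hu : u ∉ p) :
    ∃ d : V, f d u = 1 ∧ ∀ w ∈ p, f d w = 0 := by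
  obtain ⟨g, hg, hp⟩ := Submodule.exists_dual_map_eq_bot_of_notMem hu inferInstance
  obtain ⟨d, rfl⟩ := formDual_bijective.2 g
  refine ⟨(f d u)⁻¹ • d, by rw [form_smul_left]; exact inv_mul_cancel₀ hg, fun w hw => ?_⟩
  have : formDual d w ∈ p.map (formDual d) := Submodule.mem_map_of_mem hw
  rw [hp, Submodule.mem_bot, formDual_apply] at this
  rw [form_smul_left, this, mul_zero]

theorem not_mem_span_pair (h2 : Fintype.card F = 2) {a b c : V} (h0 : c ≠ 0) (ha : c ≠ a) (hb : c ≠ b)
    (hab : c ≠ a + b) : c ∉ Submodule.span F {a, b} := by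
  intro h
  obtain ⟨r, s, hrs⟩ := Submodule.mem_span_pair.mp h
  rcases zero_or_one h2 r with hr | hr <;> rcases zero_or_one h2 s with hs | hs <;>
    simp [hr, hs] at hrs
  · exact h0 hrs.symm
  · exact hb hrs.symm
  · exact ha hrs.symm
  · exact hab hrs.symm

theorem not_mem_span_singleton (h2 : Fintype.card F = 2) {a c : V} (h0 : c ≠ 0) (ha : c ≠ a) :
    c ∉ Submodule.span F {a} := by
  intro h
  obtain ⟨r, hr⟩ := Submodule.mem_span_singleton.mp h
  rcases zero_or_one h2 r with h' | h' <;> simp [h'] at hr
  · exact h0 hr.symm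
  · exact ha hr.symm

/-- A quadratic form with polar form `f`. -/
def IsForm (ψ : V → F) : Prop := ∀ x y : V, ψ (x + y) = ψ x + ψ y + f x y

omit [Fintype F] in
theorem IsForm.zero {ψ : V → F} (h : IsForm ψ) : ψ 0 = 0 := by
  have := h 0 0
  rw [add_zero, form_zero_left, add_zero] at this
  linear_combination -this

omit [Fintype F] in
theorem IsForm.add_linear {ψ : V → F} (h : IsForm ψ) (a : V) : IsForm fun x => ψ x + f a x := by
  intro x y
  show ψ (x + y) + f a (x + y) = _
  rw [h, form_add_right]
  ring

theorem exists_isForm (h2 : Fintype.card F = 2) : ∃ ψ : V → F, IsForm ψ := by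
  refine ⟨fun x => ∑ i, x (.inl i) * x (.inr i), fun x y => ?_⟩
  rw [form_def, ← Finset.sum_add_distrib, ← Finset.sum_add_distrib]
  refine Finset.sum_congr rfl fun i _ => ?_
  simp only [Pi.add_apply]
  linear_combination add_self h2 (x (.inl i) * y (.inr i))

theorem IsForm.smul (h2 : Fintype.card F = 2) {ψ : V → F} (h : IsForm ψ) (c : F) (x : V) :
    ψ (c • x) = c * ψ x := by
  rcases zero_or_one h2 c with hc | hc <;> simp [hc, h.zero]

/-- A sign. -/
def sg [DecidableEq F] (e : F) : ℤ := if e = 0 then 1 else -1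

variable [DecidableEq F]

theorem sg_add (h2 : Fintype.card F = 2) (a b : F) : sg (a + b) = sg a * sg b := by
  rcases zero_or_one h2 a with ha | ha <;> rcases zero_or_one h2 b with hb | hb <;>
    simp [ha, hb, sg, add_self h2]

omit [Fintype F] in
theorem sg_zero : sg (0 : F) = 1 := if_pos rfl

/-- Gauss sum of a form on a finite set. -/
def gsum (U : Finset V) (ψ : V → F) : ℤ := ∑ x ∈ U, sg (ψ x)

theorem gsum_eq_count (h2 : Fintype.card F = 2) (U : Finset V) (ψ : V → F) :
    gsum U ψ + (U.card : ℤ) = 2 * ((U.filter fun x => ψ x = 0).card : ℤ) := by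
  rw [gsum, Finset.card_eq_sum_ones U, Finset.card_filter, Nat.cast_sum, Nat.cast_sum, ← Finset.sum_add_distrib,
    Finset.mul_sum]
  refine Finset.sum_congr rfl fun x _ => ?_
  rcases zero_or_one h2 (ψ x) with h | h <;> simp [h, sg]

/-- The square of a Gauss sum: a sum over the radical. -/
theorem gsum_sq (h2 : Fintype.card F = 2) (U : Finset V) (hadd : ∀ x ∈ U, ∀ y ∈ U, x + y ∈ U)
    (rad : Finset V) (hrad : ∀ w, w ∈ rad ↔ w ∈ U ∧ ∀ x ∈ U, f x w = 0) {ψ : V → F} (hψ : IsForm ψ) :
    gsum U ψ ^ 2 = U.card * ∑ w ∈ rad, sg (ψ w) := by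
  classical
  have hz : ∀ w ∈ U, ∑ x ∈ U, sg (f x w) = if w ∈ rad then (U.card : ℤ) else 0 := by
    intro w hw
    by_cases hr : w ∈ rad
    · rw [if_pos hr, Finset.sum_congr rfl fun x hx => by rw [((hrad w).mp hr).2 x hx, sg_zero],
        Finset.sum_const, nsmul_eq_mul, mul_one]
    · rw [if_neg hr]
      have h' : ∃ x₀ ∈ U, f x₀ w ≠ 0 := by
        by_contra hc
        push Not at hc
        exact hr ((hrad w).mpr ⟨hw, hc⟩)
      obtain ⟨x₀, hx₀, hne⟩ := h'
      have h1 : f x₀ w = 1 := (zero_or_one h2 _).resolve_left hne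
      have h3 : ∑ x ∈ U, sg (f x w) = ∑ x ∈ U, sg (f (x + x₀) w) :=
        Finset.sum_nbij' (fun x => x + x₀) (fun x => x + x₀) (fun x hx => hadd x hx x₀ hx₀) (fun x hx => hadd x hx x₀ hx₀)
          (fun x _ => by rw [add_assoc, vec_add_self h2, add_zero])
          (fun x _ => by rw [add_assoc, vec_add_self h2, add_zero])
          (fun x _ => by rw [add_assoc, vec_add_self h2, add_zero])
      simp only [form_add_left, h1, sg_add h2, ← Finset.sum_mul] at h3
      have : sg (1 : F) = -1 := if_neg one_ne_zero
      rw [this] at h3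
      linarith
  have h4 : gsum U ψ ^ 2 = ∑ w ∈ U, sg (ψ w) * ∑ x ∈ U, sg (f x w) := by
    rw [sq, gsum, Finset.sum_mul_sum]
    simp only [Finset.mul_sum]
    conv_rhs => rw [Finset.sum_comm]
    refine Finset.sum_congr rfl fun x hx => ?_
    refine Finset.sum_nbij' (fun y => x + y) (fun y => x + y) (fun y hy => hadd x hx y hy) (fun y hy => hadd x hx y hy)
      (fun y _ => by rw [← add_assoc, vec_add_self h2, zero_add])
      (fun y _ => by rw [← add_assoc, vec_add_self h2, zero_add]) (fun y _ => ?_)
    rw [← sg_add h2, ← sg_add h2]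
    congr 1
    rw [hψ, form_add_right, form_self, zero_add, add_assoc, add_self h2, add_zero]
  rw [h4, Finset.sum_congr rfl fun w hw => by rw [hz w hw]]
  simp only [mul_ite, mul_zero]
  rw [← Finset.sum_filter, show U.filter (fun w => w ∈ rad) = rad from ?_, Finset.mul_sum]
  · exact Finset.sum_congr rfl fun w _ => mul_comm _ _
  · ext w
    simp only [Finset.mem_filter, and_iff_right_iff_imp]
    exact fun h => ((hrad w).mp h).1

section Siegel

omit [DecidableEq F]

/-- The Siegel element `x ↦ x + f(x,v) u + f(x,u) v`. -/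
def xi (v u : V) : Sp := tv (u + v) 1 * tv u 1 * tv v 1

theorem xi_mulVec (h2 : Fintype.card F = 2) {v u : V} (h : f u v = 0) (x : V) :
    mat (xi v u) *ᵥ x = x + f x v • u + f x u • v := by
  rw [xi, coe_mul', coe_mul', ← Matrix.mulVec_mulVec, ← Matrix.mulVec_mulVec]
  simp only [tv_mulVec, form_add_left, form_add_right, form_smul_left, form_self, form_comm h2 v u, h, one_mul,
    mul_zero, add_zero, smul_add, add_smul]
  have h1 := vec_add_self h2 (f x u • u)
  have h3 := vec_add_self h2 (f x v • v)
  linear_combination (norm := module) h1 + h3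

theorem xi_mul (h2 : Fintype.card F = 2) {v u u' : V} (h : f u v = 0) (h' : f u' v = 0) :
    xi v u * xi v u' = xi v (u + u') * tv v (f u u') := by
  refine ext_mulVec fun x => ?_
  rw [coe_mul', coe_mul', ← Matrix.mulVec_mulVec, ← Matrix.mulVec_mulVec, xi_mulVec h2 h', xi_mulVec h2 h,
    xi_mulVec h2 (by rw [form_add_left, h, h', add_zero]), tv_mulVec]
  simp only [form_add_left, form_add_right, form_smul_left, form_self, form_comm h2 v u, form_comm h2 v u',
    form_comm h2 u' u, h, h', mul_zero, add_zero, smul_add, add_smul]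
  module

theorem xi_comm (h2 : Fintype.card F = 2) {v u : V} (h : f u v = 0) : xi v u = xi u v := by
  refine ext_mulVec fun x => ?_
  rw [xi_mulVec h2 h, xi_mulVec h2 (by rw [form_comm h2, h])]
  abel

theorem xi_shift (h2 : Fintype.card F = 2) {v u : V} (h : f u v = 0) : xi v (u + v) = xi v u := by
  refine ext_mulVec fun x => ?_
  rw [xi_mulVec h2 h, xi_mulVec h2 (by rw [form_add_left, h, form_self, add_zero])]
  simp only [form_add_right, smul_add, add_smul]
  have h1 := vec_add_self h2 (f x v • v)
  linear_combination (norm := module) h1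

theorem xi_self (h2 : Fintype.card F = 2) (v : V) : xi v v = (1 : Sp) := by
  refine ext_mulVec fun x => ?_
  rw [xi_mulVec h2 (form_self v), coe_one', Matrix.one_mulVec, add_assoc, vec_add_self h2, add_zero]

theorem xi_zero (h2 : Fintype.card F = 2) (v : V) : xi v 0 = (1 : Sp) := by
  refine ext_mulVec fun x => ?_
  rw [xi_mulVec h2 (form_zero_left v), coe_one', Matrix.one_mulVec, form_zero_right]
  simp

omit [Fintype F] in
theorem conj_xi {v u : V} (g : Sp) :
    g * xi v u * g⁻¹ = xi (mat g *ᵥ v) (mat g *ᵥ u) := by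
  rw [xi, xi, ← Matrix.mulVec_add, ← tv_conj, ← tv_conj, ← tv_conj]
  group

end Siegel

end CfsgLib.MinIndexSpTwo
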