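import Cfsg.Agent.MinIndexSpTwo.Orbit

/-!
The minimal degree of a permutation representation of `Sp_2m(2)`, and the action on quadratic forms of
minus type attaining it.
-/

set_option autoImplicit false
set_option linter.style.haveILetI false

namespace CfsgLib.MinIndexSpTwo

open Matrix CfsgLib.SpGeom

variable {F : Type*} [Field F] [Fintype F] [DecidableEq F] {m : ℕ}

local notation "V" => (Fin m ⊕ Fin m → F)
local notation "Sp" => Matrix.symplecticGroup (Fin m) F
local notation "f" => Cfsg.sympForm m F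
local notation "mat" A:max => ((A : Sp) : Matrix (Fin m ⊕ Fin m) (Fin m ⊕ Fin m) F)

variable {Ω : Type*} [MulAction ↥(Matrix.symplecticGroup (Fin m) F) Ω]

omit [DecidableEq F] in
theorem central_false (h2 : Fintype.card F = 2) (hm : 3 ≤ m)
    (hP : ∀ v : V, v ≠ 0 → ∀ (x : Ω) (u : V), f u v = 0 → xi v u • x = x ∨ xi v u • x = tv v 1 • x)
    {v : V} (hv : v ≠ 0) {x : Ω} (hx : tv v 1 • x ≠ x) : False := by
  classical
  have equiv : ∀ v : V, v ≠ 0 → ∀ u : V, f u v = 0 → u ≠ 0 → u ≠ v → tv v 1 • x ≠ x →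
      (tv u 1 • x = tv v 1 • x ↔ xi v u • x ≠ x) := by
    intro v hv u hu hu0 huv hmv
    constructor
    · intro heq hfix
      obtain ⟨z, hzu, hzv'⟩ := exists_sep (not_mem_span_singleton h2 hu0 huv)
      have hzv := hzv' v (Submodule.mem_span_singleton_self v)
      set y := tv v 1 • x with hy
      have hfixy : xi v u • y = y := by
        rw [hy, ← mul_smul, ← (commute_tv_xi hu 1).eq, mul_smul, hfix]
      have hconj : tv u 1 * xi v z * tv u 1 = xi v z * xi v u * tv v 1 := by
        have hinv : (tv u 1 : Sp)⁻¹ = tv u 1 := inv_eq_of_mul_eq_one_right (tv_sq h2 u)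
        have h1 := conj_xi (v := v) (u := z) (tv u (1 : F))
        rw [hinv, tv_fix u 1 (show f v u = 0 by rw [form_comm h2, hu]), tv_mulVec, hzu, one_mul, one_smul] at h1
        rw [h1, xi_mul h2 hzv hu, hzu, mul_assoc, tv_sq h2, mul_one]
      have h3 : tv u 1 • (xi v z • y) = xi v z • y := by
        have h4 := congrArg (fun g : Sp => g • x) hconj
        simp only [mul_smul] at h4
        rw [heq, ← hy, hfixy] at h4
        exact h4
      have hzy : xi v z • y = tv v 1 • (xi v z • x) := by
        rw [hy, ← mul_smul, ← (commute_tv_xi hzv 1).eq, mul_smul]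
      rcases hP v hv x z hzv with h | h
      · rw [hzy, h, ← hy] at h3
        -- `tv u` fixes `y`
        rw [← heq, ← mul_smul, tv_sq h2, one_smul, heq] at h3
        exact hmv h3.symm
      · rw [hzy, h, ← mul_smul, ← mul_smul, mul_assoc, tv_sq h2, mul_one] at h3
        rw [show tv v 1 • tv v 1 • x = x by rw [← mul_smul, tv_sq h2, one_smul], heq] at h3
        exact hmv h3
    · intro hne
      have hxy : xi v u • x = tv v 1 • x := (hP v hv x u hu).resolve_left hne
      have hc : xi u v = xi v u := xi_comm h2 (by rw [form_comm h2, hu])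
      rcases hP u hu0 x v (by rw [form_comm h2, hu]) with h | h
      · rw [hc] at h
        exact absurd h hne
      · rw [hc, hxy] at h
        exact h.symm
  set y := tv v 1 • x with hy
  -- a vector with `xi v u` moving `x`
  obtain ⟨a, hav, ha0, hanv⟩ : ∃ a : V, f a v = 0 ∧ a ≠ 0 ∧ a ≠ v := by
    by_contra hc
    push Not at hc
    have hsub : (Finset.univ.filter fun a : V => f a v = 0) ⊆ {0, v} := fun a ha => by
      by_cases h : a = 0
      · simp [h]
      · simp [hc a (Finset.mem_filter.mp ha).2 h]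
    have := (Finset.card_le_card hsub).trans Finset.card_le_two
    rw [card_perp h2 (by omega) hv] at this
    have : 4 ≤ (2 ^ (m - 1)) := by
      calc (4 : ℕ) = 2 ^ 2 := rfl
        _ ≤ 2 ^ (m - 1) := Nat.pow_le_pow_right (by norm_num) (by omega)
    nlinarith
  obtain ⟨u, huv, hu0, hunv, hux⟩ : ∃ u : V, f u v = 0 ∧ u ≠ 0 ∧ u ≠ v ∧ xi v u • x ≠ x := by
    by_contra hc
    push Not at hc
    obtain ⟨b, hba, hb'⟩ := exists_sep (not_mem_span_singleton h2 ha0 hanv)
    have hbv := hb' v (Submodule.mem_span_singleton_self v)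
    have hb0 : b ≠ 0 := fun h => by rw [h, form_zero_left] at hba; exact zero_ne_one hba
    have hbnv : b ≠ v := fun h => by rw [h, form_comm h2, hav] at hba; exact zero_ne_one hba
    have habv : f (a + b) v = 0 := by rw [form_add_left, hav, hbv, add_zero]
    have hab0 : a + b ≠ 0 := fun h => by
      have e : f (a + b) a = 1 := by rw [form_add_left, form_self, hba, zero_add]
      rw [h, form_zero_left] at e; exact zero_ne_one e
    have habnv : a + b ≠ v := fun h => by
      have e : f (a + b) a = 1 := by rw [form_add_left, form_self, hba, zero_add]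
      rw [h, form_comm h2, hav] at e; exact zero_ne_one e
    have h1 := xi_mul h2 hav hbv
    rw [form_comm h2, hba] at h1
    have h3 := congrArg (fun g : Sp => g • x) h1
    simp only [mul_smul] at h3
    rw [hc b hbv hb0 hbnv, hc a hav ha0 hanv, ← mul_smul, ← (commute_tv_xi habv 1).eq, mul_smul,
      hc (a + b) habv hab0 habnv] at h3
    exact hx h3.symm
  -- a vector orthogonal to `u` and `v` outside their span
  obtain ⟨c, hcv, hcu, hcs⟩ : ∃ c : V, f c v = 0 ∧ f c u = 0 ∧ c ∉ Submodule.span F {u, v} := by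
    by_contra hc
    push Not at hc
    have hle : orth (Submodule.span F {u, v}) ≤ Submodule.span F {u, v} := fun w hw =>
      hc w (mem_orth.mp hw v (Submodule.subset_span (by simp))) (mem_orth.mp hw u (Submodule.subset_span (by simp)))
    have hfr : Module.finrank F (Submodule.span F {u, v}) ≤ 2 := by
      have h1 := finrank_range_le_card (R := F) (![u, v])
      rw [Matrix.range_cons, Matrix.range_cons, Matrix.range_empty, Set.union_empty, Set.singleton_union] at h1
      simpa [Set.finrank] using h1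
    have h4 := card_orth (Submodule.span F {u, v})
    rw [card_sub, card_sub, ← pow_add, h2] at h4
    have h5 := Submodule.finrank_mono hle
    have h6 := Nat.pow_right_injective (le_refl 2) h4
    omega
  obtain ⟨d, hdc, hd'⟩ := exists_sep hcs
  have hdu := hd' u (Submodule.subset_span (by simp))
  have hdv := hd' v (Submodule.subset_span (by simp))
  obtain ⟨u', hu'v, huu', hu's, hu'x⟩ : ∃ u' : V, f u' v = 0 ∧ f u u' = 0 ∧ u' ∉ Submodule.span F {u, v} ∧
      xi v u' • x ≠ x := by
    by_contra hcon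
    push Not at hcon
    have hds : d ∉ Submodule.span F {u, v} := fun h => by
      obtain ⟨r, s, hrs⟩ := Submodule.mem_span_pair.mp h
      have e : f c d = 1 := by rw [form_comm h2, hdc]
      rw [← hrs, form_add_right, form_smul_right, form_smul_right, hcu, hcv] at e
      simp at e
    have hcds : c + d ∉ Submodule.span F {u, v} := fun h => by
      obtain ⟨r, s, hrs⟩ := Submodule.mem_span_pair.mp h
      have e : f c (c + d) = 1 := by rw [form_add_right, form_self, zero_add, form_comm h2, hdc]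
      rw [← hrs, form_add_right, form_smul_right, form_smul_right, hcu, hcv] at e
      simp at e
    have hcdv : f (c + d) v = 0 := by rw [form_add_left, hcv, hdv, add_zero]
    have h1 := xi_mul h2 hcv hdv
    rw [form_comm h2, hdc] at h1
    have h3 := congrArg (fun g : Sp => g • x) h1
    simp only [mul_smul] at h3
    rw [hcon d hdv (by rw [form_comm h2, hdu]) hds, hcon c hcv (by rw [form_comm h2, hcu]) hcs, ← mul_smul,
      ← (commute_tv_xi hcdv 1).eq, mul_smul,
      hcon (c + d) hcdv (by rw [form_add_right, form_comm h2 u c, hcu, form_comm h2 u d, hdu, add_zero]) hcds] at h3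
    exact hx h3.symm
  have hu'0 : u' ≠ 0 := fun h => hu's (h ▸ Submodule.zero_mem _)
  have hu'nv : u' ≠ v := fun h => hu's (h ▸ Submodule.subset_span (by simp))
  have hu'nu : u' ≠ u := fun h => hu's (h ▸ Submodule.subset_span (by simp))
  set w := u + u' with hw
  have hwv : f w v = 0 := by rw [hw, form_add_left, huv, hu'v, add_zero]
  have hw0 : w ≠ 0 := fun h => hu'nu (by
    have := congrArg (fun z => u + z) h
    simp only [hw, ← add_assoc, vec_add_self h2, zero_add, add_zero] at this
    exact this)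
  have hwnv : w ≠ v := fun h => hu's (by
    have e : u' = u + v := by rw [← h, hw, ← add_assoc, vec_add_self h2, zero_add]
    rw [e]
    exact Submodule.add_mem _ (Submodule.subset_span (by simp)) (Submodule.subset_span (by simp)))
  have hwnu : w ≠ u := fun h => hu'0 (add_eq_left.mp (hw ▸ h))
  -- both move `x` to the same point
  have hu1 : tv u 1 • x = y := (equiv v hv u huv hu0 hunv hx).mpr hux
  have hu'1 : tv u' 1 • x = y := (equiv v hv u' hu'v hu'0 hu'nv hx).mpr hu'x
  have hum : tv u 1 • x ≠ x := by rw [hu1]; exact hx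
  have h1 : xi u u' • x ≠ x := (equiv u hu0 u' (by rw [form_comm h2, huu']) hu'0 hu'nu hum).mp (hu'1.trans hu1.symm)
  have h2' : xi u w = xi u u' := by rw [hw, add_comm, xi_shift h2 (by rw [form_comm h2, huu'])]
  have h3 : tv w 1 • x = y := ((equiv u hu0 w (by rw [hw, form_add_left, form_self, zero_add, form_comm h2, huu'])
    hw0 hwnu hum).mpr (by rw [h2']; exact h1)).trans hu1
  have h4 : xi v w • x ≠ x := (equiv v hv w hwv hw0 hwnv hx).mp h3
  apply h4
  have h5 := xi_mul h2 huv hu'v
  rw [huu', tv_zero, mul_one] at h5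
  rw [hw, ← h5, mul_smul, (hP v hv x u' hu'v).resolve_left hu'x, ← mul_smul, ← (commute_tv_xi huv 1).eq, mul_smul,
    (hP v hv x u huv).resolve_left hux, ← mul_smul, tv_sq h2, one_smul]

/-- A nontrivial permutation representation of `Sp_2m(2)` has degree at least `2^(m-1) (2^m - 1)`. -/
theorem card_ge [Fintype Ω] [MulAction.IsPretransitive ↥(Matrix.symplecticGroup (Fin m) F) Ω] [Nontrivial Ω]
    (h2 : Fintype.card F = 2) (hm : 3 ≤ m) : 2 ^ (m - 1) * (2 ^ m - 1) ≤ Fintype.card Ω := by
  classical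
  by_contra hlt
  have hmove : ∀ v : V, v ≠ 0 → ∃ x : Ω, tv v 1 • x ≠ x := by
    intro v hv
    by_contra hc
    push Not at hc
    obtain ⟨x, y, hxy⟩ := exists_pair_ne Ω
    have htop : MulAction.stabilizer Sp x = ⊤ := by
      refine eq_top_of_tv _ fun w c => ?_
      rw [MulAction.mem_stabilizer_iff]
      rcases zero_or_one h2 c with h | h
      · rw [h, tv_zero, one_smul]
      rw [h]
      by_cases hw : w = 0
      · have : tv w (1 : F) = 1 := ext_mulVec fun z => by simp [tv_mulVec, hw]
        rw [this, one_smul]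
      obtain ⟨A, hA⟩ := exists_mulVec_eq (F := F) hv hw
      rw [← hA, ← tv_conj, mul_smul, mul_smul, hc, smul_inv_smul]
    obtain ⟨g, hg⟩ := MulAction.exists_smul_eq Sp x y
    have hgm : g ∈ MulAction.stabilizer Sp x := htop ▸ Subgroup.mem_top g
    exact hxy (hgm.symm.trans hg)
  have hP : ∀ v : V, v ≠ 0 → ∀ (x : Ω) (u : V), f u v = 0 → xi v u • x = x ∨ xi v u • x = tv v 1 • x := by
    intro v hv
    obtain ⟨φ, hφ, hv1⟩ : ∃ φ : V → F, IsForm φ ∧ φ v = 1 := by
      obtain ⟨φ, hφ⟩ := exists_isForm (F := F) (m := m) h2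
      rcases zero_or_one h2 (φ v) with h | h
      · obtain ⟨d, hd, -⟩ := exists_sep (show v ∉ (⊥ : Submodule F V) by simpa using hv)
        exact ⟨_, hφ.add_linear d, by show φ v + f d v = 1; rw [h, hd, zero_add]⟩
      · exact ⟨φ, hφ, h⟩
    exact (bound_or_central h2 hm hv hφ hv1 (hmove v hv)).resolve_left hlt
  have hv : (Pi.single (Sum.inl ⟨0, by omega⟩) 1 : V) ≠ 0 := Pi.single_ne_zero_iff.2 one_ne_zero
  obtain ⟨x, hx⟩ := hmove _ hv
  exact central_false h2 hm hP hv hx

section Forms

/-- The quadratic forms with polar form `f`. -/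
def Forms (F : Type*) [Field F] (m : ℕ) : Type _ := {ψ : (Fin m ⊕ Fin m → F) → F // IsForm ψ}

instance : MulAction ↥(Matrix.symplecticGroup (Fin m) F) (Forms F m) where
  smul g ψ := ⟨fun x => ψ.1 (mat g⁻¹ *ᵥ x), fun x y => by
    show ψ.1 _ = _
    rw [Matrix.mulVec_add, ψ.2, form_mulVec]⟩
  one_smul ψ := Subtype.ext (funext fun x => by
    show ψ.1 (mat (1 : Sp)⁻¹ *ᵥ x) = ψ.1 x
    rw [inv_one, coe_one', Matrix.one_mulVec])
  mul_smul g h ψ := Subtype.ext (funext fun x => by
    show ψ.1 (mat (g * h)⁻¹ *ᵥ x) = ψ.1 (mat h⁻¹ *ᵥ (mat g⁻¹ *ᵥ x))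
    rw [_root_.mul_inv_rev, coe_mul', Matrix.mulVec_mulVec])

omit [DecidableEq F] in
theorem tv_smul_form (h2 : Fintype.card F = 2) (ψ : Forms F m) {w : V} (hw : ψ.1 w = 0) :
    ((tv w (1 : F)) • ψ).1 = fun x => ψ.1 x + f w x := by
  funext x
  show ψ.1 (mat (tv w (1 : F))⁻¹ *ᵥ x) = _
  rw [inv_eq_of_mul_eq_one_right (tv_sq h2 w), tv_mulVec, one_mul, ψ.2, ψ.2.smul h2, hw, mul_zero, add_zero,
    form_smul_right, mul_self h2, form_comm h2 w x]

theorem exists_index (h2 : Fintype.card F = 2) (hm : 1 ≤ m) :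
    ∃ H : Subgroup Sp, H.index = 2 ^ (m - 1) * (2 ^ m - 1) := by
  classical
  set U : Finset V := Finset.univ with hU
  have hcardV : U.card = (2 ^ m) ^ 2 := by
    rw [hU, Finset.card_univ, Fintype.card_fun, Fintype.card_sum, Fintype.card_fin, h2, ← pow_mul, mul_two]
  have hsq : ∀ ψ : V → F, IsForm ψ → gsum U ψ = (2 : ℤ) ^ m ∨ gsum U ψ = -(2 : ℤ) ^ m := by
    intro ψ hψ
    have hrad : ∀ w, w ∈ ({0} : Finset V) ↔ w ∈ U ∧ ∀ x ∈ U, f x w = 0 := by
      intro w
      simp only [Finset.mem_singleton, hU, Finset.mem_univ, true_and, forall_true_left]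
      refine ⟨fun h x => by rw [h, form_zero_right], fun h => ext_form fun x => ?_⟩
      rw [form_zero_left, form_comm h2, h]
    have h := gsum_sq h2 U (fun x _ y _ => Finset.mem_univ _) {0} hrad hψ
    rw [Finset.sum_singleton, hψ.zero, sg_zero, mul_one, hcardV] at h
    push_cast at h
    exact sq_eq_sq_iff_eq_or_eq_neg.mp h
  have hshift : ∀ ψ : V → F, IsForm ψ → ∀ w, gsum U (fun x => ψ x + f w x) = sg (ψ w) * gsum U ψ := by
    intro ψ hψ w
    rw [gsum, gsum, Finset.mul_sum]
    refine Finset.sum_nbij' (fun x => x + w) (fun x => x + w) (fun _ _ => Finset.mem_univ _) (fun _ _ => Finset.mem_univ _)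
      (fun x _ => by rw [add_assoc, vec_add_self h2, add_zero])
      (fun x _ => by rw [add_assoc, vec_add_self h2, add_zero]) (fun x _ => ?_)
    rw [← sg_add h2, hψ, form_comm h2 x w]
    congr 1
    linear_combination -(add_self h2 (ψ w))
  obtain ⟨ψ, hψs⟩ : ∃ ψ : Forms F m, gsum U ψ.1 = -(2 : ℤ) ^ m := by
    obtain ⟨ψ, hψ⟩ := exists_isForm (F := F) (m := m) h2
    rcases hsq ψ hψ with h | h
    · obtain ⟨w, hw⟩ : ∃ w, ψ w = 1 := by
        by_contra hc
        push Not at hc
        have h1 : gsum U ψ = (2 ^ m : ℤ) ^ 2 := by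
          rw [gsum, Finset.sum_congr rfl fun x _ => by rw [(zero_or_one h2 _).resolve_right (hc x), sg_zero],
            Finset.sum_const, nsmul_eq_mul, mul_one, hcardV]
          push_cast; rfl
        rw [h] at h1
        have : (2 : ℤ) ≤ 2 ^ m := by
          calc (2 : ℤ) = 2 ^ 1 := (pow_one _).symm
            _ ≤ 2 ^ m := pow_le_pow_right₀ (by norm_num) hm
        nlinarith
      refine ⟨⟨_, hψ.add_linear w⟩, ?_⟩
      show gsum U (fun x => ψ x + f w x) = _
      rw [hshift ψ hψ, hw, h, show sg (1 : F) = -1 from if_neg one_ne_zero]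
      ring
    · exact ⟨⟨ψ, hψ⟩, h⟩
  refine ⟨MulAction.stabilizer Sp ψ, ?_⟩
  rw [MulAction.index_stabilizer, ← Nat.card_coe_set_eq]
  let Z := U.filter fun w => ψ.1 w = 0
  have horb : ∀ χ : Forms F m, χ ∈ MulAction.orbit Sp ψ ↔ ∃ w ∈ Z, χ.1 = fun x => ψ.1 x + f w x := by
    intro χ
    constructor
    · rintro ⟨g, rfl⟩
      -- the difference of two forms is linear
      let L : Module.Dual F V :=
        { toFun := fun x => (g • ψ).1 x + ψ.1 x
          map_add' := fun x y => by
            rw [(g • ψ).2, ψ.2]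
            linear_combination add_self h2 (f x y)
          map_smul' := fun c x => by
            rw [RingHom.id_apply, (g • ψ).2.smul h2, ψ.2.smul h2, smul_eq_mul, mul_add] }
      obtain ⟨w, hw⟩ := formDual_bijective.2 L
      have hw' : (g • ψ).1 = fun x => ψ.1 x + f w x := by
        funext x
        have : f w x = (g • ψ).1 x + ψ.1 x := LinearMap.congr_fun hw x
        rw [this]
        linear_combination -(add_self h2 (ψ.1 x))
      refine ⟨w, Finset.mem_filter.mpr ⟨Finset.mem_univ _, ?_⟩, hw'⟩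
      have h1 : gsum U (g • ψ).1 = gsum U ψ.1 :=
        Finset.sum_nbij' (fun x => mat g⁻¹ *ᵥ x) (fun x => mat g *ᵥ x) (fun _ _ => Finset.mem_univ _)
          (fun _ _ => Finset.mem_univ _) (fun x _ => mulVec_inv g x) (fun x _ => inv_mulVec g x) (fun _ _ => rfl)
      rw [hw', hshift _ ψ.2, hψs] at h1
      rcases zero_or_one h2 (ψ.1 w) with h | h
      · exact h
      · rw [h, show sg (1 : F) = -1 from if_neg one_ne_zero] at h1
        have : (0 : ℤ) < 2 ^ m := pow_pos (by norm_num) m
        linarith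
    · rintro ⟨w, hw, hχ⟩
      exact ⟨tv w 1, Subtype.ext ((tv_smul_form h2 ψ (Finset.mem_filter.mp hw).2).trans hχ.symm)⟩
  have hcard : Nat.card (MulAction.orbit Sp ψ) = Z.card := by
    rw [← Fintype.card_coe, ← Nat.card_eq_fintype_card]
    refine (Nat.card_congr (Equiv.ofBijective
      (fun w : Z => (⟨tv w.1 1 • ψ, (horb _).mpr ⟨w.1, w.2, tv_smul_form h2 ψ (Finset.mem_filter.mp w.2).2⟩⟩ :
        MulAction.orbit Sp ψ)) ⟨?_, ?_⟩)).symm
    · intro w w' h
      have h1 := congrArg (fun z : MulAction.orbit Sp ψ => z.1.1) h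
      simp only [tv_smul_form h2 ψ (Finset.mem_filter.mp w.2).2, tv_smul_form h2 ψ (Finset.mem_filter.mp w'.2).2] at h1
      exact Subtype.ext (ext_form fun x => add_left_cancel (congrFun h1 x))
    · rintro ⟨χ, hχ⟩
      obtain ⟨w, hw, he⟩ := (horb χ).mp hχ
      exact ⟨⟨w, hw⟩, Subtype.ext (Subtype.ext ((tv_smul_form h2 ψ (Finset.mem_filter.mp hw).2).trans he.symm))⟩
  rw [hcard]
  have hcnt := gsum_eq_count h2 U ψ.1
  rw [hψs, hcardV] at hcnt
  change _ = 2 * (Z.card : ℤ) at hcnt
  have h2m : 2 ^ m = 2 * 2 ^ (m - 1) := by rw [← pow_succ']; congr 1; omega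
  have hpos : 1 ≤ 2 ^ m := Nat.one_le_two_pow
  have key : ((2 ^ (m - 1) * (2 ^ m - 1) : ℕ) : ℤ) = Z.card := by
    have e : ((2 : ℤ) ^ m) = 2 * 2 ^ (m - 1) := by exact_mod_cast h2m
    push_cast [Nat.cast_sub hpos] at hcnt ⊢
    rw [e] at hcnt ⊢
    linarith
  exact_mod_cast key.symm

end Forms

end CfsgLib.MinIndexSpTwo
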